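import Cfsg.Agent.S0107
import Cfsg.Agent.H187.FusSelfNorm

/-!
# Simple groups with dihedral Sylow 2-subgroups of order at least 8 have simple 2-fusion systems (helper798)
-/

set_option autoImplicit false

namespace Cfsg.Agent.H798

open Cfsg Cfsg.FusionSystem

/-- An automorphism of odd order of a dihedral group of order `2 ^ (n + 1) ≥ 8` is trivial. -/
theorem dihedral_aut_eq_one {n : ℕ} (hn : 2 ≤ n) (α : MulAut (DihedralGroup (2 ^ n))) {j : ℕ} (hj : Odd j)
    (hα : α ^ j = 1) : α = 1 := by
  have hNe : NeZero (2 ^ n) := ⟨by positivity⟩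
  -- the image of `r 1`
  have h4 : 4 ≤ 2 ^ n := by
    calc 4 = 2 ^ 2 := by norm_num
      _ ≤ 2 ^ n := Nat.pow_le_pow_right (by norm_num) hn
  have h1 : ∃ a : ZMod (2 ^ n), α (DihedralGroup.r 1) = DihedralGroup.r a := by
    have ho : orderOf (α (DihedralGroup.r 1)) = 2 ^ n := by
      rw [MulEquiv.orderOf_eq, DihedralGroup.orderOf_r_one]
    cases hc : α (DihedralGroup.r 1) with
    | r a => exact ⟨a, rfl⟩
    | sr a =>
      rw [hc, DihedralGroup.orderOf_sr] at ho
      omega
  obtain ⟨a, ha⟩ := h1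
  have hr : ∀ b : ZMod (2 ^ n), α (DihedralGroup.r b) = DihedralGroup.r (a * b) := by
    intro b
    have e1 : (DihedralGroup.r b : DihedralGroup (2 ^ n)) = (DihedralGroup.r 1) ^ b.val := by
      rw [DihedralGroup.r_one_pow, ZMod.natCast_zmod_val]
    rw [e1, map_pow, ha, DihedralGroup.r_pow, ZMod.natCast_zmod_val]
  have hs : ∃ c : ZMod (2 ^ n), α (DihedralGroup.sr 0) = DihedralGroup.sr c := by
    cases hc : α (DihedralGroup.sr 0) with
    | sr c => exact ⟨c, rfl⟩
    | r c =>
      exfalso
      -- `α` is surjective: `sr 0 = α y`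
      obtain ⟨y, hy⟩ := α.surjective (DihedralGroup.sr 0)
      cases y with
      | r b =>
        rw [hr] at hy
        cases hy
      | sr b =>
        have e2 : (DihedralGroup.sr b : DihedralGroup (2 ^ n)) = DihedralGroup.sr 0 * DihedralGroup.r b := by
          rw [DihedralGroup.sr_mul_r, zero_add]
        rw [e2, map_mul, hc, hr, DihedralGroup.r_mul_r] at hy
        cases hy
  obtain ⟨c, hc⟩ := hs
  have hpow : ∀ m : ℕ, (α ^ m) (DihedralGroup.r 1) = DihedralGroup.r (a ^ m) := by
    intro m
    induction m with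
    | zero => simp
    | succ m ih => rw [pow_succ', MulAut.mul_apply, ih, hr, pow_succ']
  -- `a ^ j = 1`
  have haj : a ^ j = 1 := by
    have := hpow j
    rw [hα, MulAut.one_apply] at this
    exact (DihedralGroup.r.inj this).symm
  have ha1 : a = 1 := by
    have hu : IsUnit a := IsUnit.of_pow_eq_one haj (by rintro rfl; simp at hj)
    obtain ⟨u, rfl⟩ := hu
    have huj : u ^ j = 1 := by
      apply Units.ext
      rw [Units.val_pow_eq_pow_val, haj, Units.val_one]
    have h2 : u ^ (Nat.totient (2 ^ n)) = 1 := ZMod.pow_totient u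
    have h3 : Nat.totient (2 ^ n) = 2 ^ (n - 1) := by
      rw [Nat.totient_prime_pow Nat.prime_two (by omega)]
      simp
    rw [h3] at h2
    have h5 : orderOf u ∣ Nat.gcd j (2 ^ (n - 1)) :=
      Nat.dvd_gcd (orderOf_dvd_of_pow_eq_one huj) (orderOf_dvd_of_pow_eq_one h2)
    have h6 : Nat.gcd j (2 ^ (n - 1)) = 1 := by
      apply Nat.Coprime.pow_right
      exact (Nat.coprime_two_right.2 hj)
    rw [h6, Nat.dvd_one, orderOf_eq_one_iff] at h5
    rw [h5, Units.val_one]
  have hpow2 : ∀ m : ℕ, (α ^ m) (DihedralGroup.sr 0) = DihedralGroup.sr ((m : ZMod (2 ^ n)) * c) := by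
    intro m
    induction m with
    | zero => simp
    | succ m ih =>
      rw [pow_succ', MulAut.mul_apply, ih]
      have e2 : (DihedralGroup.sr ((m : ZMod (2 ^ n)) * c) : DihedralGroup (2 ^ n)) =
          DihedralGroup.sr 0 * DihedralGroup.r ((m : ZMod (2 ^ n)) * c) := by
        rw [DihedralGroup.sr_mul_r, zero_add]
      rw [e2, map_mul, hc, hr, ha1, DihedralGroup.sr_mul_r]
      congr 1
      push_cast
      ring
  have hjc : (j : ZMod (2 ^ n)) * c = 0 := by
    have := hpow2 j
    rw [hα, MulAut.one_apply] at this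
    exact (DihedralGroup.sr.inj this).symm
  have hc0 : c = 0 := by
    have hcop : Nat.Coprime j (2 ^ n) := Nat.Coprime.pow_right _ (Nat.coprime_two_right.2 hj)
    have hu : IsUnit (j : ZMod (2 ^ n)) := (ZMod.isUnit_iff_coprime j (2 ^ n)).2 hcop
    exact (hu.mul_right_eq_zero).1 hjc
  apply MulEquiv.ext
  intro x
  rw [MulAut.one_apply]
  cases x with
  | r b => rw [hr, ha1, one_mul]
  | sr b =>
    have e2 : (DihedralGroup.sr b : DihedralGroup (2 ^ n)) = DihedralGroup.sr 0 * DihedralGroup.r b := by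
      rw [DihedralGroup.sr_mul_r, zero_add]
    rw [e2, map_mul, hc, hr, ha1, hc0, one_mul]

/-- In a finite group with a Sylow `p`-subgroup `S` such that all `p'`-automorphisms of `S` are trivial, elements
normalizing `S` act on `S` as elements of `S`. -/
theorem inner_of_aut {G : Type*} [Group G] [Finite G] {p : ℕ} [Fact p.Prime] (S : Sylow p G)
    (hA : ∀ α : MulAut (S : Subgroup G), ∀ j : ℕ, ¬ p ∣ j → α ^ j = 1 → α = 1) (g : G)
    (hg : ∀ x ∈ (S : Subgroup G), g * x * g⁻¹ ∈ (S : Subgroup G)) :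
    ∃ s ∈ (S : Subgroup G), ∀ x ∈ (S : Subgroup G), g * x * g⁻¹ = s * x * s⁻¹ := by
  classical
  -- `g = g₁ g₂`, with `g₁` a `p`-element and `g₂` a `p'`-element, powers of `g`
  have hgN : g ∈ Subgroup.normalizer ((S : Subgroup G) : Set G) := by
    have hle : (S : Subgroup G).map (MulAut.conj g).toMonoidHom ≤ (S : Subgroup G) := by
      rintro _ ⟨x, hx, rfl⟩
      exact hg x hx
    have heq : (S : Subgroup G).map (MulAut.conj g).toMonoidHom = (S : Subgroup G) := by
      apply Subgroup.eq_of_le_of_card_ge hle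
      rw [Subgroup.card_map_of_injective (MulAut.conj g).injective]
    rw [Subgroup.mem_normalizer_iff]
    intro x
    constructor
    · exact hg x
    · intro hx
      rw [← heq] at hx
      obtain ⟨y, hy, hxy⟩ := hx
      have : x = y := (MulAut.conj g).injective hxy.symm
      exact this ▸ hy
  set o := orderOf g with ho
  have ho0 : o ≠ 0 := (orderOf_pos g).ne'
  set a := p ^ o.factorization p with ha
  set b := o / a with hb
  have hab : a * b = o := Nat.ordProj_mul_ordCompl_eq_self o p
  have hpb : ¬ p ∣ b := Nat.not_dvd_ordCompl Fact.out ho0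
  have hcop : Nat.Coprime a b := by
    apply Nat.Coprime.pow_left
    exact (Nat.Prime.coprime_iff_not_dvd Fact.out).2 hpb
  -- Bezout
  have hbez : (1 : ℤ) = a * Nat.gcdA a b + b * Nat.gcdB a b := by
    have := Nat.gcd_eq_gcd_ab a b
    rw [hcop] at this
    exact_mod_cast this
  set g₁ := g ^ ((b : ℤ) * Nat.gcdB a b) with hg1
  set g₂ := g ^ ((a : ℤ) * Nat.gcdA a b) with hg2
  have hgg : g = g₁ * g₂ := by
    rw [hg1, hg2, ← zpow_add, add_comm, ← hbez, zpow_one]
  have hg1p : g₁ ^ a = 1 := by
    rw [hg1, ← zpow_natCast, ← zpow_mul]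
    have : (b : ℤ) * Nat.gcdB a b * (a : ℤ) = (o : ℤ) * Nat.gcdB a b := by
      rw [← hab]; push_cast; ring
    rw [this, zpow_mul, zpow_natCast, ho, pow_orderOf_eq_one, one_zpow]
  have hg2p : g₂ ^ b = 1 := by
    rw [hg2, ← zpow_natCast, ← zpow_mul]
    have : (a : ℤ) * Nat.gcdA a b * (b : ℤ) = (o : ℤ) * Nat.gcdA a b := by
      rw [← hab]; push_cast; ring
    rw [this, zpow_mul, zpow_natCast, ho, pow_orderOf_eq_one, one_zpow]
  have hg1N : g₁ ∈ Subgroup.normalizer ((S : Subgroup G) : Set G) := Subgroup.zpow_mem _ hgN _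
  have hg2N : g₂ ∈ Subgroup.normalizer ((S : Subgroup G) : Set G) := Subgroup.zpow_mem _ hgN _
  -- `g₁ ∈ S`
  have h1S : g₁ ∈ (S : Subgroup G) := by
    have hP : IsPGroup p (Subgroup.zpowers g₁) := by
      obtain ⟨k, -, hk⟩ := (Nat.dvd_prime_pow Fact.out).1 (orderOf_dvd_of_pow_eq_one hg1p)
      exact IsPGroup.of_card (n := k) (by rw [Nat.card_zpowers, hk])
    have hsup : IsPGroup p ((S : Subgroup G) ⊔ Subgroup.zpowers g₁ : Subgroup G) := by
      apply IsPGroup.to_sup_of_normal_left' S.isPGroup' hP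
      rw [Subgroup.zpowers_le]
      exact hg1N
    have := S.is_maximal' hsup le_sup_left
    rw [← this]
    exact (le_sup_right : Subgroup.zpowers g₁ ≤ _) (Subgroup.mem_zpowers g₁)
  refine ⟨g₁, h1S, ?_⟩
  -- the automorphism induced by `g₂` is trivial
  have hα := hA (MulEquiv.refl _) -- placeholder
  clear hα
  let f : Subgroup.normalizer ((S : Subgroup G) : Set G) →* MulAut (S : Subgroup G) :=
    (S : Subgroup G).normalizerMonoidHom
  have hf : f ⟨g₂, hg2N⟩ = 1 := by
    apply hA _ b hpb
    rw [← map_pow]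
    have : (⟨g₂, hg2N⟩ : Subgroup.normalizer ((S : Subgroup G) : Set G)) ^ b = 1 :=
      Subtype.ext hg2p
    rw [this, map_one]
  intro x hx
  have h2 : g₂ * x * g₂⁻¹ = x := by
    have := congrArg (fun α : MulAut (S : Subgroup G) => ((α ⟨x, hx⟩ : (S : Subgroup G)) : G)) hf
    exact this
  calc g * x * g⁻¹ = g₁ * (g₂ * x * g₂⁻¹) * g₁⁻¹ := by rw [hgg]; group
    _ = g₁ * x * g₁⁻¹ := by rw [h2]

theorem pResidual_eq_top {G : Type*} [Group G] [Finite G] [IsSimpleGroup G] {p : ℕ}
    (hG : ∃ g : G, g ≠ 1 ∧ Nat.Coprime (orderOf g) p) : Cfsg.pResidual p G = ⊤ := by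
  have hn : (Cfsg.pResidual p G).Normal := by
    constructor
    intro x hx g
    refine Subgroup.closure_induction (p := fun (x : G) _ => g * x * g⁻¹ ∈ Cfsg.pResidual p G) ?_ ?_ ?_ ?_ hx
    · intro y hy
      apply Subgroup.subset_closure
      show Nat.Coprime (orderOf (g * y * g⁻¹)) p
      have := MulEquiv.orderOf_eq (MulAut.conj g) y
      rw [MulAut.conj_apply] at this
      rw [this]
      exact hy
    · simp
    · intro a b _ _ h1 h2
      have := Subgroup.mul_mem _ h1 h2
      rwa [show g * a * g⁻¹ * (g * b * g⁻¹) = g * (a * b) * g⁻¹ by group] at this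
    · intro a _ h1
      have := Subgroup.inv_mem _ h1
      rwa [show (g * a * g⁻¹)⁻¹ = g * a⁻¹ * g⁻¹ by group] at this
  rcases hn.eq_bot_or_eq_top with h | h
  · exfalso
    obtain ⟨g, hg1, hg⟩ := hG
    have : g ∈ Cfsg.pResidual p G := Subgroup.subset_closure hg
    rw [h, Subgroup.mem_bot] at this
    exact hg1 this
  · exact h

/-- **Simple groups with dihedral Sylow 2-subgroups of order at least 8 have simple 2-fusion systems.** -/
theorem isSimple_of_dihedral {G : Type*} [Group G] [Finite G] [IsSimpleGroup G] (S : Sylow 2 G) {n : ℕ}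
    (hn : 2 ≤ n) (e : (S : Subgroup G) ≃* DihedralGroup (2 ^ n)) :
    (groupFusionSystem (S : Subgroup G)).IsSimple 2 := by
  classical
  have hNe : NeZero (2 ^ n) := ⟨by positivity⟩
  have h4 : 4 ≤ 2 ^ n := by
    calc 4 = 2 ^ 2 := by norm_num
      _ ≤ 2 ^ n := Nat.pow_le_pow_right (by norm_num) hn
  -- `S` is not commutative, so `G` is not a 2-group
  have hcS : Nat.card (S : Subgroup G) = 2 * 2 ^ n := by
    rw [Nat.card_congr e.toEquiv, DihedralGroup.nat_card]
  have hncomm : ¬ ∀ x y : G, x * y = y * x := by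
    intro h
    have h1 : (DihedralGroup.r 1 : DihedralGroup (2 ^ n)) * DihedralGroup.sr 0 =
        DihedralGroup.sr 0 * DihedralGroup.r 1 := by
      have := h (e.symm (DihedralGroup.r 1) : (S : Subgroup G)) (e.symm (DihedralGroup.sr 0) : (S : Subgroup G))
      have h2 : e.symm (DihedralGroup.r 1) * e.symm (DihedralGroup.sr 0) =
        e.symm (DihedralGroup.sr 0) * e.symm (DihedralGroup.r 1) := Subtype.ext this
      have h3 := congrArg e h2
      rwa [map_mul, map_mul, e.apply_symm_apply, e.apply_symm_apply] at h3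
    rw [DihedralGroup.r_mul_sr, DihedralGroup.sr_mul_r] at h1
    have h2 := DihedralGroup.sr.inj h1
    have h3 : (2 : ZMod (2 ^ n)) = 0 := by
      have h5 : (0 : ZMod (2 ^ n)) - 1 + 1 = 0 + 1 + 1 := by rw [h2]
      have h6 : (0 : ZMod (2 ^ n)) - 1 + 1 = 0 := by ring
      have h7 : (0 : ZMod (2 ^ n)) + 1 + 1 = 2 := by ring
      rw [← h7, ← h5, h6]
    have h5 : ((2 : ℕ) : ZMod (2 ^ n)) = 0 := by exact_mod_cast h3
    rw [ZMod.natCast_eq_zero_iff] at h5
    have := Nat.le_of_dvd (by norm_num) h5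
    omega
  have hodd : ∃ g : G, g ≠ 1 ∧ Nat.Coprime (orderOf g) 2 := by
    by_contra hcon
    push Not at hcon
    -- `G` is a 2-group
    have hpG : IsPGroup 2 G := by
      rw [IsPGroup.iff_card]
      refine ⟨(Nat.card G).factorization 2, ?_⟩
      refine Nat.eq_pow_of_factorization_eq_single (Nat.card_pos.ne') ?_
      ext q
      rw [Finsupp.single_apply]
      split_ifs with hq
      · rw [hq]
      · by_cases hqp : q.Prime
        · rw [Nat.factorization_eq_zero_iff]
          by_contra hc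
          push Not at hc
          have : Fact q.Prime := ⟨hqp⟩
          obtain ⟨g, hg⟩ := exists_prime_orderOf_dvd_card' (G := G) q hc.2.1
          have hg1 : g ≠ 1 := by
            rintro rfl
            rw [orderOf_one] at hg
            exact hqp.one_lt.ne hg
          apply hcon g hg1
          rw [hg]
          exact (Nat.coprime_primes hqp Nat.prime_two).2 (Ne.symm hq)
        · exact Nat.factorization_eq_zero_of_not_prime _ hqp
    have hnil : Group.IsNilpotent G := hpG.isNilpotent
    have hsol : Group.IsSolvable G := inferInstance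
    exact hncomm (IsSimpleGroup.comm_iff_isSolvable.2 hsol)
  have hO := pResidual_eq_top (G := G) hodd
  have hconj := Cfsg.Agent.S0107.result S n hn ⟨e⟩ hO
  refine Cfsg.Agent.H187.FusSelfNorm.isSimple S (inner_of_aut S ?_) ?_ ?_
  · intro α j hj hα
    have h1 : (MulAut.congr e α) ^ j = 1 := by rw [← map_pow, hα, map_one]
    have hj' : Odd j := by
      rw [Nat.odd_iff]
      omega
    have h2 := dihedral_aut_eq_one hn _ hj' h1
    exact (MulAut.congr e).injective (by rw [h2, map_one])
  · intro h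
    rw [h, Subgroup.card_bot] at hcS
    omega
  · intro T hT
    rw [Cfsg.Agent.H187.FusSelfNorm.stronglyClosed_iff] at hT
    obtain ⟨hTS, hT⟩ := hT
    by_cases hT1 : T = ⊥
    · exact Or.inl hT1
    right
    apply le_antisymm hTS
    -- an involution of `T`
    have hTp : IsPGroup 2 T := S.isPGroup'.to_le hTS
    have hcT : 2 ∣ Nat.card T := by
      obtain ⟨k, hk⟩ := IsPGroup.iff_card.1 hTp
      rw [hk]
      apply dvd_pow_self
      rintro rfl
      rw [pow_zero, Subgroup.card_eq_one] at hk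
      exact hT1 hk
    obtain ⟨t, ht⟩ := exists_prime_orderOf_dvd_card' (G := T) 2 hcT
    have ht' : orderOf (t : G) = 2 := by rw [Subgroup.orderOf_coe, ht]
    -- all involutions of `S` are in `T`
    have hall : ∀ x ∈ (S : Subgroup G), orderOf x = 2 → x ∈ T := by
      intro x hx hx2
      obtain ⟨g, hg⟩ := hconj (t : G) x ht' hx2
      have := hT (t : G) t.2 g (by rw [hg]; exact hx)
      rwa [hg] at this
    have hsr : ∀ a : ZMod (2 ^ n), ((e.symm (DihedralGroup.sr a) : (S : Subgroup G)) : G) ∈ T := by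
      intro a
      apply hall _ (SetLike.coe_mem _)
      rw [Subgroup.orderOf_coe, MulEquiv.orderOf_eq, DihedralGroup.orderOf_sr]
    intro x hx
    obtain ⟨y, hy⟩ : ∃ y, e.symm y = ⟨x, hx⟩ := e.symm.surjective _
    cases y with
    | sr a =>
      have := hsr a
      rw [hy] at this
      exact this
    | r a =>
      have h5 : (DihedralGroup.r a : DihedralGroup (2 ^ n)) = DihedralGroup.sr 0 * DihedralGroup.sr a := by
        rw [DihedralGroup.sr_mul_sr, sub_zero]
      have h6 := Subgroup.mul_mem T (hsr 0) (hsr a)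
      rw [← Subgroup.coe_mul, ← map_mul, ← h5, hy] at h6
      exact h6

end Cfsg.Agent.H798
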