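import Cfsg.Agent.H798.T5Tw
import Cfsg.Agent.H106.MTwD4
import Cfsg.Agent.H106.MAll
import Cfsg.Agent.H862.T5.E6Pair

/-!
T5 (S2275), defining characteristic (helper798): the row `ownT` of `²E₆(q)`, `³D₄(q)`, `p ∣ q`, `p ≥ 5`.
-/

set_option autoImplicit false
set_option linter.unusedSectionVars false
set_option maxHeartbeats 400000

universe u

namespace Cfsg.Agent.H798.T5OwnT

open CoxeterSystem Cfsg.Agent.ChevalleyStructure.CoxeterGeom Cfsg.Agent.Tits.Roots Cfsg.Agent.Tits.Core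
  Cfsg.Agent.Nodes.Reps Cfsg.Agent.Nodes.BNOf Cfsg.Agent.Nodes.StabComb Cfsg.Agent.Nodes.OppDec
  Cfsg.Agent.Nodes.LeviDec Cfsg.Agent.Nodes.Bruhat
open Cfsg.Lie Cfsg.Agent.ChevalleyStructure
open Cfsg.Agent.H533.T5 Cfsg.Agent.H957.T5M Cfsg.Agent.H106.MAll
open Cfsg.Agent.H798.T5Geo Cfsg.Agent.H798.T5Bond Cfsg.Agent.H798.T5GTwo

section Only

variable {I W Y : Type*} [Fintype I] [DecidableEq I] [Group W] [Group Y] {M : CoxeterMatrix I}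
  {cs : CoxeterSystem M W} {A : I → I → ℤ} {h : IsCartan M A} {p : ℕ} {T : Subgroup Y} {n : I → Y}
  {X : (I → ℤ) → Subgroup Y} {i j : I}

/-- An element with `NT d j`, not `NT d i`, of a group with a triple bond: the element fixes only the chambers of an
`i`-panel. -/
theorem only_of_G2 [Finite W] [Finite Y] [Fact p.Prime] (R : RGD cs h p T n X) (D : G2 cs h X i j)
    (hall : ∀ k, k = i ∨ k = j) (hp : 5 ≤ p) {d : Y} (hdj : NT cs h X d j) (hdi : ¬ NT cs h X d i) :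
    ∃ g0 : Y, ∀ g ∈ PJ cs h T X {i}, g * (g0 * d * g0⁻¹) * g⁻¹ ∈ RGD.Sup X (RGD.Pos cs h) ∧
      g * (g0 * d * g0⁻¹) * g⁻¹ ∉ VJ cs h X {j} := by
  obtain ⟨g0, hd1, hd2⟩ := hdj
  have hd3 := mem_V_of_not_NT hdi g0 hd1
  refine ⟨g0, fun g hg => ⟨VJ_le_U _ ((P_conj_V R hg).2 hd3), fun h1 => ?_⟩⟩
  obtain ⟨y, hy1, hy2⟩ := exists_ball_of_mem R hd2 hdi ⟨g, hg, h1⟩
  refine T5GFour.ball_false_of_G2 R D hall hp (e := y * d * y⁻¹) (fun h1 => hy1 (by rw [h1]; exact one_mem _)) hy2 ?_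
  exact fun h1 => hdi (h1.of_conj y)

end Only

theorem isPGroup_of {G : Type*} [Group G] [Finite G] {p : ℕ} [Fact p.Prime] {x : G} (hx : x ^ p = 1) (hx1 : x ≠ 1) :
    IsPGroup p (Subgroup.zpowers x) := by
  rw [IsPGroup.iff_card]
  refine ⟨1, ?_⟩
  rw [Nat.card_zpowers, pow_one, orderOf_eq_prime hx hx1]

/-- **`³D₄(q)`**, own characteristic. -/
theorem mrow_3D4 (p : ℕ) [Fact p.Prime] (h5 : 5 ≤ p) (K : Type) [Field K] [Fintype K] [CharP K p] {q : ℕ}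
    (hq : IsPrimePow q) (hK : Fintype.card K = q ^ 3) : MRow p ↥(twistedD4 K q) := by
  obtain ⟨hs, hna⟩ := Cfsg.Agent.S1071.result hq hK
  obtain ⟨φ, hφ⟩ := D4Fixed.exists_frob hq hK
  refine T5Tw.mrow_D4_of p hφ hK h5 hq hna ?_
  intro x y hx hy hx1 hy1 hxi hxj hyj hyi
  have hW := T5Tw.finW_D4
  have R := Cfsg.Agent.Nodes.RGDTwD4.rgd CoxeterMatrix.G₂.toCoxeterSystem hK hφ p
  obtain ⟨g0, hg0⟩ := only_of_G2 R ⟨by decide, by decide, by decide, T5Tw.intComm_D4 p hφ hK⟩ (by decide) h5 hyj hyi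
  obtain ⟨g1, h1, h2⟩ := hxi
  refine MPair.conj_left (s := g1) (Subgroup.mem_top _) (MPair.conj_right (s := g0) (Subgroup.mem_top _) ?_)
  exact H106.MTwD4.mpair_only hK hφ CoxeterMatrix.G₂.toCoxeterSystem h5 h1 h2 hg0

/-- **`²E₆(q)`**, own characteristic. -/
theorem mrow_2E6 (p : ℕ) [Fact p.Prime] (h5 : 5 ≤ p) (K : Type) [Field K] [Fintype K] [CharP K p] {q : ℕ}
    (hq : IsPrimePow q) (hK : Fintype.card K = q ^ 2)
    (hlt : ∀ (L : Type u) [Group L] [Finite L], IsSimpleGroup L → ¬ IsMulCommutative L →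
      Nat.card L < Nat.card ↥(twistedE6 K q) → MRow p L) : MRow p ↥(twistedE6 K q) := by
  obtain ⟨hs, hna⟩ := Cfsg.Agent.S1070.result hq hK
  obtain ⟨φ, hφ, hqq⟩ := TwE6Basic.exists_frob hq hK
  refine T5Tw.mrow_E6_of p hφ hqq h5 hq hK hna ?_
  intro x y hx hy hx1 hy1 _ _ _ _
  exact H862.T5.E6Pair.mpair_inner hφ hK h5 hs hlt (isPGroup_of hx hx1) hx1 (isPGroup_of hy hy1) hy1

/-- **The twisted exceptional groups**, own characteristic. -/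
theorem ownT {p : ℕ} (hp : p.Prime) (h5 : 5 ≤ p) : RowFam.{u} p (fun S _ => IsTwistedE6D4Char p S) := by
  rintro S _ _ _ hna ⟨K, _, _, _, q, hq, ⟨hK, ⟨e⟩⟩ | ⟨hK, ⟨e⟩⟩⟩ hlt
  · have := Fact.mk hp
    refine MRow.congr e (mrow_2E6 p h5 K hq hK fun L _ _ hs hna hL => hlt L hs hna ?_)
    rwa [Nat.card_congr e.toEquiv]
  · have := Fact.mk hp
    exact MRow.congr e (mrow_3D4 p h5 K hq hK)

/-- **The untwisted exceptional groups**, own characteristic. -/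
theorem ownE {p : ℕ} (hp : p.Prime) (h5 : 5 ≤ p) : RowFam.{u} p (fun S _ => IsExceptionalChevChar p S) := by
  rintro S _ _ _ hna ⟨F, _, _, _, h⟩ hlt
  have := Fact.mk hp
  rcases h with ⟨-, ⟨e⟩⟩ | ⟨⟨e⟩⟩ | ⟨⟨e⟩⟩ | ⟨⟨e⟩⟩ | ⟨⟨e⟩⟩
  · exact MRow.congr e (T5Untw.mrow_G2 p h5 F)
  · exact MRow.congr e (T5Untw.mrow_F4 p h5 F)
  · exact MRow.congr e (T5Untw.mrow_E6 p h5 F)
  · exact MRow.congr e (T5Untw.mrow_E7 p h5 F)
  · exact MRow.congr e (T5Untw.mrow_E8 p h5 F)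

end Cfsg.Agent.H798.T5OwnT
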