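import Mathlib
import Cfsg.Agent.H798.T5Line
import Cfsg.Agent.CpAut.RgdSub

/-!
WRow, defining characteristic `p` odd (helper798): the rank one row `w2_line` : two permutations `f₁`, `f₂` of order `p`
of the projective line over a finite field of odd characteristic `p`, permuting the root groups, are a weak pair for the
group generated by the root groups.
-/

set_option autoImplicit false
set_option linter.unusedSectionVars false
set_option maxHeartbeats 400000

namespace Cfsg.Agent.H798.W3Line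

open Cfsg.Agent.FixBN Cfsg.Agent.FixBN.RankOneL2 Cfsg.Agent.H14.CycLine Cfsg.Agent.H533.T5
open Cfsg.Agent.CpAut.RgdSub (fixF mem_fixF card_fixF)

/-! ### counting -/

/-- a transitive group all of whose elements move `B` to a set meeting `A` -/
theorem card_le_of_meet {Om : Type*} [Finite Om] {H : Subgroup (Equiv.Perm Om)}
    (htr : ∀ a b : Om, ∃ g ∈ H, g a = b) {A B : Set Om} (h : ∀ g ∈ H, ∃ b ∈ B, g b ∈ A) :
    Nat.card Om ≤ Nat.card A * Nat.card B := by
  classical
  have := Fintype.ofFinite Om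
  have := Fintype.ofFinite ↥H
  have := Fintype.ofFinite ↥A
  have := Fintype.ofFinite ↥B
  choose f hf hf' using fun g : H => h g g.2
  have h1 : Fintype.card H ≤ Fintype.card (Σ x : A × B, {g : H // (g : Equiv.Perm Om) x.2.1 = x.1.1}) := by
    refine Fintype.card_le_of_injective
      (fun g => ⟨(⟨(g : Equiv.Perm Om) (f g), hf' g⟩, ⟨f g, hf g⟩), ⟨g, rfl⟩⟩) ?_
    intro g g' e
    exact congrArg (fun z : (Σ x : A × B, {g : H // (g : Equiv.Perm Om) x.2.1 = x.1.1}) => (z.2.1 : H)) e
  have h2 : ∀ a b : Om, Fintype.card {g : H // (g : Equiv.Perm Om) b = a} * Fintype.card Om = Fintype.card H := by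
    intro a b
    have e1 : Fintype.card H = ∑ a' : Om, Fintype.card {g : H // (g : Equiv.Perm Om) b = a'} := by
      rw [← Fintype.card_sigma]
      exact Fintype.card_congr (Equiv.sigmaFiberEquiv fun g : H => (g : Equiv.Perm Om) b).symm
    rw [e1, Finset.sum_congr rfl (fun a' _ => ?_), Finset.sum_const, Finset.card_univ, smul_eq_mul, mul_comm]
    obtain ⟨k, hk, hka⟩ := htr a' a
    refine Fintype.card_congr
      { toFun := fun g => ⟨⟨k, hk⟩ * g.1, by
          show k ((g.1 : Equiv.Perm Om) b) = a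
          rw [g.2, hka]⟩
        invFun := fun g => ⟨⟨k, hk⟩⁻¹ * g.1, by
          show k⁻¹ ((g.1 : Equiv.Perm Om) b) = a'
          rw [g.2, Equiv.Perm.inv_eq_iff_eq, hka]⟩
        left_inv := fun g => Subtype.ext (by simp)
        right_inv := fun g => Subtype.ext (by simp) }
  rw [Fintype.card_sigma] at h1
  have h3 : Fintype.card H * Fintype.card Om ≤ (Fintype.card A * Fintype.card B) * Fintype.card H := by
    calc Fintype.card H * Fintype.card Om ≤
        (∑ x : A × B, Fintype.card {g : H // (g : Equiv.Perm Om) x.2.1 = x.1.1}) * Fintype.card Om :=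
          Nat.mul_le_mul_right _ h1
      _ = ∑ x : A × B, Fintype.card H := by
          rw [Finset.sum_mul]
          exact Finset.sum_congr rfl fun x _ => h2 _ _
      _ = _ := by rw [Finset.sum_const, Finset.card_univ, Fintype.card_prod, smul_eq_mul]
  rw [mul_comm (Fintype.card H)] at h3
  have h4 := Nat.le_of_mul_le_mul_right h3 Fintype.card_pos
  rwa [Nat.card_eq_fintype_card, Nat.card_eq_fintype_card, Nat.card_eq_fintype_card]

/-! ### fixed points -/

variable {F : Type*} [Field F]

theorem act_of_fix (h2 : (2 : F) ≠ 0) {c : Equiv.Perm (Option F)} (hc : c ∈ famStab (lineFam F))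
    (h0 : c none = none) (h1 : c (some 0) = some 0) :
    ∃ (φ : F ≃+* F) (m : F), m ≠ 0 ∧ ∀ t, c (some t) = some (m * φ t) := by
  obtain ⟨φ, T, hT⟩ := exists_lift_fix h2 hc h0 h1
  have e1 : ((1, 0) : F × F) ≠ 0 := by simp
  have e2 : ((0, 1) : F × F) ≠ 0 := by simp
  have h3 : (T (1, 0)).2 = 0 := by
    have h4 := hT.act _ e1
    rw [pt_zero, h0] at h4
    by_contra h5
    have h6 : pt (T (1, 0)) = some ((T (1, 0)).1 / (T (1, 0)).2) := pt_ne _ h5
    rw [h6] at h4
    exact Option.some_ne_none _ h4.symm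
  have h4 : (T (0, 1)).1 = 0 ∧ (T (0, 1)).2 ≠ 0 := by
    have h4 := hT.act _ e2
    rw [pt_ne _ one_ne_zero, zero_div, h1] at h4
    by_cases h5 : (T (0, 1)).2 = 0
    · exfalso
      have h6 : pt (T (0, 1)) = none := by
        have h7 : T (0, 1) = ((T (0, 1)).1, 0) := Prod.ext rfl h5
        rw [h7, pt_zero]
      rw [h6] at h4
      exact Option.some_ne_none _ h4
    · have h6 : pt (T (0, 1)) = some ((T (0, 1)).1 / (T (0, 1)).2) := pt_ne _ h5
      rw [h6] at h4
      have h7 := Option.some_injective _ h4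
      exact ⟨by
        rcases div_eq_zero_iff.1 h7.symm with h8 | h8
        · exact h8
        · exact absurd h8 h5, h5⟩
  set a := (T (1, 0)).1 with ha
  set r := (T (0, 1)).2 with hr
  have ha0 : a ≠ 0 := by
    intro h5
    apply map_ne_zero' T e1
    exact Prod.ext h5 h3
  refine ⟨φ, a / r, div_ne_zero ha0 h4.2, fun t => ?_⟩
  have h5 : ((t, 1) : F × F) ≠ 0 := by simp
  have h6 := hT.act _ h5
  rw [pt_ne _ one_ne_zero, div_one] at h6
  have h7 : T (t, 1) = (φ t * a, r) := by
    have h8 : ((t, 1) : F × F) = t • ((1, 0) : F × F) + ((0, 1) : F × F) := by simp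
    rw [h8, map_add, hT.semi]
    refine Prod.ext ?_ ?_
    · show φ t * (T (1, 0)).1 + (T (0, 1)).1 = φ t * a
      rw [h4.1, add_zero]
    · show φ t * (T (1, 0)).2 + (T (0, 1)).2 = r
      rw [h3, mul_zero, zero_add]
  rw [h6, h7, pt_ne _ h4.2]
  congr 1
  ring

/-- the number of fixed points -/
noncomputable def nf {Om : Type*} (f : Equiv.Perm Om) : ℕ := Nat.card {y : Om // f y = y}

theorem nf_conj {Om : Type*} (f k : Equiv.Perm Om) : nf (k⁻¹ * f * k) = nf f := by
  refine Nat.card_congr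
    { toFun := fun y => ⟨k y.1, ?_⟩
      invFun := fun y => ⟨k⁻¹ y.1, ?_⟩
      left_inv := fun y => Subtype.ext (k.symm_apply_apply _)
      right_inv := fun y => Subtype.ext (k.apply_symm_apply _) }
  · have h1 : k⁻¹ (f (k y.1)) = y.1 := y.2
    rw [Equiv.Perm.inv_eq_iff_eq] at h1
    exact h1
  · show k⁻¹ (f (k (k⁻¹ y.1))) = k⁻¹ y.1
    have h1 : k (k⁻¹ y.1) = y.1 := k.apply_symm_apply _
    rw [h1, y.2]

theorem nf_mod {Om : Type*} [Finite Om] {p : ℕ} [Fact p.Prime] {f : Equiv.Perm Om} (hf : f ^ p = 1) :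
    Nat.card Om ≡ nf f [MOD p] := by
  classical
  have hP : IsPGroup p (Subgroup.zpowers f) := by
    rw [IsPGroup.iff_card]
    have h1 := orderOf_dvd_of_pow_eq_one hf
    rcases (Nat.dvd_prime Fact.out).1 h1 with h2 | h2
    · exact ⟨0, by rw [Nat.card_zpowers, h2, pow_zero]⟩
    · exact ⟨1, by rw [Nat.card_zpowers, h2, pow_one]⟩
  have h1 := hP.card_modEq_card_fixedPoints Om
  have h2 : Nat.card (MulAction.fixedPoints (Subgroup.zpowers f) Om) = nf f := by
    refine Nat.card_congr (Equiv.subtypeEquivRight fun y => ?_)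
    rw [MulAction.mem_fixedPoints]
    constructor
    · intro h3
      exact h3 ⟨f, Subgroup.mem_zpowers f⟩
    · rintro h3 ⟨g, hg⟩
      obtain ⟨n, rfl⟩ := Subgroup.mem_zpowers_iff.1 hg
      exact Equiv.Perm.zpow_apply_eq_self_of_apply_eq_self h3 n
  rwa [h2] at h1

/-- **Fixed points** of a permutation of order `p` permuting the root groups of the projective line. -/
theorem nf_le [Finite F] {p : ℕ} [Fact p.Prime] [CharP F p] (hp2 : p ≠ 2) {f : Equiv.Perm (Option F)}
    (hf : f ∈ famStab (lineFam F)) (ho : f ^ p = 1) (hne : f ≠ 1) :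
    nf f ≤ 1 ∨ ∃ e, nf f = e + 1 ∧ 3 ≤ e ∧ e ^ 3 ≤ Nat.card F := by
  have hp : p.Prime := Fact.out
  have hp3 : 3 ≤ p := by
    have := hp.two_le
    omega
  have h2 : (2 : F) ≠ 0 := by
    intro h
    have h3 : ((2 : ℕ) : F) = 0 := by exact_mod_cast h
    rw [CharP.cast_eq_zero_iff F p] at h3
    exact hp2 ((Nat.prime_dvd_prime_iff_eq hp Nat.prime_two).1 h3)
  by_cases h1 : nf f ≤ 1
  · exact Or.inl h1
  right
  have hmod : nf f ≡ 1 [MOD p] := by
    have h3 := (nf_mod ho).symm
    have h4 : Nat.card (Option F) = Nat.card F + 1 := Finite.card_option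
    rw [h4] at h3
    refine h3.trans ?_
    have h5 : p ∣ Nat.card F := by
      have := Fintype.ofFinite F
      rw [Nat.card_eq_fintype_card]
      exact (CharP.cast_eq_zero_iff F p _).1 (FiniteField.cast_card_eq_zero F)
    have h6 : Nat.card F ≡ 0 [MOD p] := (Nat.modEq_zero_iff_dvd).2 h5
    exact h6.add_right 1
  have h4 : p ∣ nf f - 1 := (Nat.modEq_iff_dvd' (by omega)).1 hmod.symm
  have h5 : p ≤ nf f - 1 := Nat.le_of_dvd (by omega) h4
  -- two fixed points
  have htwo : ∃ y0 y1 : Option F, y0 ≠ y1 ∧ f y0 = y0 ∧ f y1 = y1 := by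
    have h6 : 1 < Nat.card {y : Option F // f y = y} := by
      show 1 < nf f
      omega
    have := Finite.one_lt_card_iff_nontrivial.1 h6
    obtain ⟨a, b, hab⟩ := exists_pair_ne {y : Option F // f y = y}
    exact ⟨a.1, b.1, fun h => hab (Subtype.ext h), a.2, b.2⟩
  obtain ⟨y0, y1, hy, hy0, hy1⟩ := htwo
  obtain ⟨k, hk, hk0, hk1⟩ := exists_psl2 hy
  set g := k⁻¹ * f * k with hg
  have hgf : g ∈ famStab (lineFam F) :=
    mul_mem (mul_mem (inv_mem (psl2_le_famStab hk)) hf) (psl2_le_famStab hk)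
  have hg0 : g none = none := by
    show k⁻¹ (f (k none)) = none
    rw [hk0, hy0, ← hk0]
    exact k.symm_apply_apply _
  have hg1 : g (some 0) = some 0 := by
    show k⁻¹ (f (k (some 0))) = some 0
    rw [hk1, hy1, ← hk1]
    exact k.symm_apply_apply _
  have hgo : g ^ p = 1 := by
    have e : g = k⁻¹ * f * k⁻¹⁻¹ := by rw [inv_inv]
    rw [e, conj_pow, ho, mul_one, mul_inv_cancel]
  have hgn : g ≠ 1 := by
    intro h
    apply hne
    have : f = k * g * k⁻¹ := by rw [hg]; group
    rw [this, h]; group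
  have hN : nf g = nf f := nf_conj f k
  obtain ⟨φ, m, hm, hact⟩ := act_of_fix h2 hgf hg0 hg1
  -- a third fixed point
  obtain ⟨t0, ht0, ht0'⟩ : ∃ t0 : F, t0 ≠ 0 ∧ m * φ t0 = t0 := by
    by_contra hcon
    push Not at hcon
    have h6 : nf g ≤ 2 := by
      let i : {y : Option F // g y = y} → Fin 2 := fun y => if y.1 = none then 0 else 1
      have hi : Function.Injective i := by
        rintro ⟨y, hy⟩ ⟨z, hz⟩ e
        apply Subtype.ext
        have key : ∀ y : Option F, g y = y → y = none ∨ y = some 0 := by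
          intro y hy
          rcases y with _ | t
          · exact Or.inl rfl
          · right
            rw [hact] at hy
            have h7 := Option.some_injective _ hy
            by_contra h8
            exact hcon t (fun h9 => h8 (by rw [h9])) h7
        rcases key y hy with rfl | rfl <;> rcases key z hz with rfl | rfl
        · rfl
        · simp [i] at e
        · simp [i] at e
        · rfl
      calc nf g ≤ Nat.card (Fin 2) := Nat.card_le_card_of_injective i hi
        _ = 2 := by simp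
    omega
  have hφpow : ∀ (n : ℕ) (u : F), (g ^ n) (some (t0 * u)) = some (t0 * (φ ^ n) u) := by
    intro n u
    induction n with
    | zero => rfl
    | succ n ih =>
      rw [pow_succ', Equiv.Perm.mul_apply, ih, hact, map_mul, ← mul_assoc, ht0', pow_succ']
      rfl
  have hφp : φ ^ p = 1 := by
    ext u
    have h6 := hφpow p u
    rw [hgo, Equiv.Perm.one_apply] at h6
    exact (mul_left_cancel₀ ht0 (Option.some_injective _ h6)).symm
  have hφ1 : φ ≠ 1 := by
    rintro rfl
    apply hgn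
    have hm1 : m = 1 := by
      have : m * t0 = t0 := ht0'
      exact mul_right_cancel₀ ht0 (by rw [this, one_mul])
    ext y
    rcases y with _ | t
    · rw [hg0]; rfl
    · rw [hact, hm1, one_mul]; rfl
  have hcard := card_fixF hp hφp hφ1
  have hfix : nf g = Nat.card ↥(fixF φ) + 1 := by
    rw [← Finite.card_option]
    have hiff : ∀ t : F, g (some t) = some t ↔ t / t0 ∈ fixF φ := by
      intro t
      rw [hact, mem_fixF, map_div₀, Option.some_inj]
      have hm' : m = t0 / φ t0 := by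
        rw [eq_div_iff (by rwa [Ne, map_eq_zero])]
        exact ht0'
      rw [hm']
      have hφ0 : φ t0 ≠ 0 := by rwa [Ne, map_eq_zero]
      rw [div_mul_eq_mul_div, div_eq_iff hφ0, div_eq_div_iff hφ0 ht0]
      constructor
      · intro h; linear_combination h
      · intro h; linear_combination h
    refine Nat.card_congr
      { toFun := fun y => match y with
          | ⟨none, _⟩ => none
          | ⟨some t, h⟩ => some ⟨t / t0, (hiff t).1 h⟩
        invFun := fun z => match z with
          | none => ⟨none, hg0⟩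
          | some u => ⟨some (u.1 * t0), (hiff _).2 (by rw [mul_div_cancel_right₀ _ ht0]; exact u.2)⟩
        left_inv := ?_
        right_inv := ?_ }
    · rintro ⟨_ | t, h⟩
      · rfl
      · apply Subtype.ext
        show some (t / t0 * t0) = some t
        rw [div_mul_cancel₀ _ ht0]
    · rintro (_ | u)
      · rfl
      · show some _ = some u
        congr 1
        apply Subtype.ext
        show u.1 * t0 / t0 = u.1
        rw [mul_div_cancel_right₀ _ ht0]
  refine ⟨Nat.card ↥(fixF φ), by rw [← hN, hfix], by omega, ?_⟩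
  rw [hcard]
  exact Nat.pow_le_pow_right Nat.card_pos hp3

theorem trans_line (a b : Option F) : ∃ g ∈ (⨆ y, lineFam F y), g a = b := by
  rw [iSup_lineFam]
  have key : ∀ y : Option F, ∃ k ∈ psl2 F, k none = y := by
    intro y
    by_cases h : y = some 0
    · obtain ⟨k, hk, h1, -⟩ := exists_psl2 (F := F) (y0 := y) (y1 := none) (by rw [h]; simp)
      exact ⟨k, hk, h1⟩
    · obtain ⟨k, hk, h1, -⟩ := exists_psl2 (F := F) (y0 := y) (y1 := some 0) h
      exact ⟨k, hk, h1⟩
  obtain ⟨k, hk, rfl⟩ := key a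
  obtain ⟨k', hk', rfl⟩ := key b
  refine ⟨k' * k⁻¹, mul_mem hk' (inv_mem hk), ?_⟩
  show k' (k⁻¹ (k none)) = k' none
  congr 1
  exact k.symm_apply_apply _

/-- **The rank one row**, odd defining characteristic. -/
theorem w2_line [Finite F] {p : ℕ} [Fact p.Prime] [CharP F p] (hp2 : p ≠ 2) {f₁ f₂ : Equiv.Perm (Option F)}
    (h₁ : f₁ ∈ famStab (lineFam F)) (h₂ : f₂ ∈ famStab (lineFam F)) (o₁ : f₁ ^ p = 1) (o₂ : f₂ ^ p = 1)
    (n₁ : f₁ ≠ 1) (n₂ : f₂ ≠ 1) : WPair p (⨆ y, lineFam F y) f₁ f₂ := by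
  by_contra hW
  have hK : ∀ g ∈ (⨆ y, lineFam F y), IsPGroup p ↥(Subgroup.closure ({f₁, g * f₂ * g⁻¹} : Set (Equiv.Perm (Option F)))) := by
    intro g hg
    by_contra h
    exact hW ⟨g, hg, h⟩
  have hq : 1 ≤ Nat.card F := Nat.card_pos
  have hcard : Nat.card (Option F) = Nat.card F + 1 := Finite.card_option
  have hnd : ¬ p ∣ Nat.card (Option F) := by
    rw [hcard]
    intro h
    have h5 : p ∣ Nat.card F := by
      have := Fintype.ofFinite F
      rw [Nat.card_eq_fintype_card]
      exact (CharP.cast_eq_zero_iff F p _).1 (FiniteField.cast_card_eq_zero F)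
    have h6 := (Nat.dvd_add_right h5).1 h
    exact (Fact.out : p.Prime).one_lt.ne' (Nat.dvd_one.1 h6)
  have h3 : Nat.card (Option F) ≤ nf f₁ * nf f₂ := by
    refine card_le_of_meet (H := ⨆ y, lineFam F y) trans_line (A := {y | f₁ y = y}) (B := {y | f₂ y = y}) ?_
    intro g hg
    obtain ⟨y, hy⟩ := (hK g hg).nonempty_fixed_point_of_prime_not_dvd_card (Option F) hnd
    rw [MulAction.mem_fixedPoints] at hy
    have e1 : f₁ y = y := hy ⟨f₁, Subgroup.subset_closure (by simp)⟩
    have e2 : g (f₂ (g⁻¹ y)) = y := hy ⟨g * f₂ * g⁻¹, Subgroup.subset_closure (by simp)⟩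
    refine ⟨g⁻¹ y, ?_, ?_⟩
    · show f₂ (g⁻¹ y) = g⁻¹ y
      rw [Equiv.Perm.eq_inv_iff_eq]
      exact e2
    · show f₁ (g (g⁻¹ y)) = g (g⁻¹ y)
      have : g (g⁻¹ y) = y := g.apply_symm_apply y
      rw [this, e1]
  rw [hcard] at h3
  have key : ∀ {a b q : ℕ}, 3 ≤ a → 3 ≤ b → a ^ 3 ≤ q → b ^ 3 ≤ q → a ≤ b → (a + 1) * (b + 1) < q + 1 := by
    intro a b q ha hb h1 h2 hab
    have h4 : (a + 1) * (b + 1) ≤ (b + 1) * (b + 1) := Nat.mul_le_mul_right _ (by omega)
    have h5 : (b + 1) * (b + 1) < b ^ 3 + 1 := by nlinarith [mul_self_nonneg b, Nat.mul_le_mul hb hb]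
    omega
  rcases nf_le hp2 h₁ o₁ n₁ with h4 | ⟨a, ha, ha3, hac⟩
  · rcases nf_le hp2 h₂ o₂ n₂ with h5 | ⟨b, hb, hb3, hbc⟩
    · have : nf f₁ * nf f₂ ≤ 1 * 1 := Nat.mul_le_mul h4 h5
      omega
    · have h6 : nf f₁ * nf f₂ ≤ 1 * (b + 1) := Nat.mul_le_mul h4 hb.le
      have h7 : b < b ^ 3 := by
        calc b = b ^ 1 := (pow_one b).symm
          _ < b ^ 3 := Nat.pow_lt_pow_right (by omega) (by norm_num)
      omega
  · rcases nf_le hp2 h₂ o₂ n₂ with h5 | ⟨b, hb, hb3, hbc⟩
    · have h6 : nf f₁ * nf f₂ ≤ (a + 1) * 1 := Nat.mul_le_mul ha.le h5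
      have h7 : a < a ^ 3 := by
        calc a = a ^ 1 := (pow_one a).symm
          _ < a ^ 3 := Nat.pow_lt_pow_right (by omega) (by norm_num)
      omega
    · rw [ha, hb] at h3
      rcases le_total a b with h6 | h6
      · exact absurd h3 (not_le.2 (key ha3 hb3 hac hbc h6))
      · have := key hb3 ha3 hbc hac h6
        rw [mul_comm] at this
        exact absurd h3 (not_le.2 this)

end Cfsg.Agent.H798.W3Line
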