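import Cfsg.Agent.H798.W3Line
import Cfsg.Agent.H798.T5Asm

/-!
S3826, defining characteristic (helper798): panels, weak pairs for every odd prime `p` (in particular `p = 3`).

* `W2 p fam` : two permutations of order `p` permuting the family are a weak pair; `w2_pan`;
* `wpair_pan`, `TP.wpair` : a common type gives a weak pair;
* `wrow_of'` : the weak row, `ℓ ≠ 2`.
-/

set_option autoImplicit false
set_option linter.unusedSectionVars false
set_option maxHeartbeats 400000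

namespace Cfsg.Agent.H798.W3Pan

open Cfsg CoxeterSystem Subgroup Cfsg.Agent.ChevalleyStructure.CoxeterGeom Cfsg.Agent.Tits.Roots
  Cfsg.Agent.LieExceptional.BNPairCore Cfsg.Agent.Tits.Core Cfsg.Agent.Tits.Core.Bldg
  Cfsg.Agent.Tits.OfBN Cfsg.Agent.Schreier.BNSch Cfsg.Agent.Tits.OppRes Cfsg.Agent.FixBN.OfBN
  Cfsg.Agent.Tits.RootComb Cfsg.Agent.Nodes.Comb Cfsg.Agent.Nodes.Reps Cfsg.Agent.Nodes.BNOf
  Cfsg.Agent.Nodes.StabComb Cfsg.Agent.Nodes.Bruhat Cfsg.Agent.Nodes.OppDec Cfsg.Agent.Nodes.LeviDec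
open Cfsg.Agent.FixBN (Sys Split famStab mem_famStab lineFam FieldNode)
open Cfsg.Agent.FixOdd (Tw)
open Cfsg.Agent.H460.Typed Cfsg.Agent.H460.Pan Cfsg.Agent.H460.EllC Cfsg.Agent.H460.PanL
  Cfsg.Agent.H185.TypedTw Cfsg.Agent.H460.EllPan Cfsg.Agent.H460.Engine
open Cfsg.Agent.H533.T5 Cfsg.Agent.H957.T5M
open Cfsg.Agent.H798.T5Geo Cfsg.Agent.H798.T5Pan Cfsg.Agent.H798.T5Tp Cfsg.Agent.H798.T5Asm

section Row

variable {Om Om' : Type*}

/-- two permutations of order `p` permuting the family are a weak pair -/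
def W2 (p : ℕ) (fam : Om → Subgroup (Equiv.Perm Om)) : Prop :=
  ∀ f₁ ∈ famStab fam, ∀ f₂ ∈ famStab fam, f₁ ^ p = 1 → f₂ ^ p = 1 → f₁ ≠ 1 → f₂ ≠ 1 → WPair p (⨆ y, fam y) f₁ f₂

theorem W2.map {p : ℕ} (e : Om ≃ Om') {U : Om → Subgroup (Equiv.Perm Om)}
    {U' : Om' → Subgroup (Equiv.Perm Om')} (hU : ∀ y g, g ∈ U y ↔ e.permCongr g ∈ U' (e y)) (h : W2 p U) :
    W2 p U' := by
  set F : Equiv.Perm Om ≃* Equiv.Perm Om' := e.permCongrHom with hF
  have hfa : ∀ g, F g = e.permCongr g := fun g => rfl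
  have hcy : ∀ (c : Equiv.Perm Om) y, (F c) (e y) = e (c y) := fun c y => by
    show e (c (e.symm (e y))) = e (c y)
    rw [e.symm_apply_apply]
  have hst : ∀ f, F f ∈ famStab U' → f ∈ famStab U := by
    intro f hf y g
    have := hf (e y) (F g)
    rwa [hcy, ← map_mul, ← map_inv, ← map_mul, hfa, hfa, ← hU, ← hU] at this
  have hsup : (⨆ y, U y).map F.toMonoidHom ≤ ⨆ y, U' y := by
    rw [Subgroup.map_le_iff_le_comap]
    refine iSup_le fun y g hg => ?_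
    rw [Subgroup.mem_comap]
    exact Subgroup.mem_iSup_of_mem (e y) ((hU y g).1 hg)
  intro f₁' h1 f₂' h2 o1 o2 n1 n2
  obtain ⟨f₁, rfl⟩ := F.surjective f₁'
  obtain ⟨f₂, rfl⟩ := F.surjective f₂'
  have hone : ∀ f : Equiv.Perm Om, F f = 1 ↔ f = 1 := fun f => by
    rw [← map_one F, F.injective.eq_iff]
  have := h f₁ (hst _ h1) f₂ (hst _ h2) (by rwa [← map_pow, hone] at o1) (by rwa [← map_pow, hone] at o2)
    (fun h3 => n1 ((hone _).2 h3)) (fun h3 => n2 ((hone _).2 h3))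
  exact (this.of_injective F.toMonoidHom F.injective).mono hsup

end Row

variable {K : Type*} [Group K] [Finite K] {ℓ : ℕ} [Fact ℓ.Prime] {l : ℕ} {M : CoxeterMatrix (Fin l)} {Q : Fin l → ℕ}

/-- the panels over fields, in the defining characteristic -/
theorem w2_pan (E : Eng ℓ K M Q) (h2 : ℓ ≠ 2) {i : Fin l} (h : FNode E.P E.U (E.e i : K) (Q i)) (x : K ⧸ E.P.B) :
    W2 ℓ (E.sys.fam i x) := by
  induction x using QuotientGroup.induction_on with
  | _ g =>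
  obtain ⟨V, Nd, F, _, _, hQ, ⟨N⟩⟩ := h
  have hch : CharP F ℓ := by
    -- `F` embeds in a group of exponent a power of `ℓ`
    obtain ⟨r, hr⟩ := CharP.exists F
    have hrp : r.Prime := CharP.char_is_prime F r
    have h1 : ∀ (n : ℕ) (a : F), N.x (n • a) = (N.x a) ^ n := by
      intro n a
      induction n with
      | zero => rw [zero_smul, pow_zero]; exact N.x_zero
      | succ n ih => rw [succ_nsmul, N.add, ih, pow_succ]
    obtain ⟨n, hn⟩ := E.S.isP ⟨N.x 1, N.mem 1⟩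
    have h2 : (N.x 1) ^ ℓ ^ n = 1 := by simpa using congrArg Subtype.val hn
    rw [← h1] at h2
    have h3 : ((ℓ ^ n : ℕ) : F) = 0 := by
      rw [← nsmul_one]
      exact N.ne _ (by rw [h2]; exact one_mem _)
    rw [CharP.cast_eq_zero_iff F r] at h3
    have h4 := (Nat.prime_dvd_prime_iff_eq hrp Fact.out).1 (hrp.dvd_of_dvd_pow h3)
    rwa [← h4]
  exact W2.map _ (H14.CycNode.iso_mk E.S E.e E.cs E.hcs i Nd N g fun y f => Iff.rfl)
    (fun f₁ h₁ f₂ h₂ o₁ o₂ n₁ n₂ => W3Line.w2_line h2 h₁ h₂ o₁ o₂ n₁ n₂)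

variable {E : Eng ℓ K M Q}

/-- **Two automorphisms acting non-trivially on a panel of a common fixed chamber.** -/
theorem wpair_pan {x y : MulAut K} {θ η : Equiv.Perm (K ⧸ E.P.B)} (hx : Act E x θ) (hy : Act E y η)
    (ox : x ^ ℓ = 1) (oy : y ^ ℓ = 1) {c : K ⧸ E.P.B} (hxc : θ c = c) (hyc : η c = c) {i : Fin l}
    (hnx : ∃ z ∈ E.Δ.Pan i c, θ z ≠ z) (hny : ∃ z ∈ E.Δ.Pan i c, η z ≠ z) (hP : W2 ℓ (E.sys.fam i c)) :
    WPair ℓ (MulAut.conj : K →* MulAut K).range x y := by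
  let f₁ : Equiv.Perm (E.Δ.Pan i c) := θ.subtypePerm fun z => (hx.mem_pan hxc i z).symm
  let f₂ : Equiv.Perm (E.Δ.Pan i c) := η.subtypePerm fun z => (hy.mem_pan hyc i z).symm
  have hf₁ : ∀ z, (f₁ z : K ⧸ E.P.B) = θ z := fun z => rfl
  have hf₂ : ∀ z, (f₂ z : K ⧸ E.P.B) = η z := fun z => rfl
  have o1 : f₁ ^ ℓ = 1 := by
    ext z
    rw [restr_pow hf₁, hx.pow_eq_one ox]
    rfl
  have o2 : f₂ ^ ℓ = 1 := by
    ext z
    rw [restr_pow hf₂, hy.pow_eq_one oy]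
    rfl
  have n1 : f₁ ≠ 1 := by
    obtain ⟨z, hz, h⟩ := hnx
    intro h1
    apply h
    have := hf₁ ⟨z, hz⟩
    rw [h1] at this
    exact this.symm
  have n2 : f₂ ≠ 1 := by
    obtain ⟨z, hz, h⟩ := hny
    intro h1
    apply h
    have := hf₂ ⟨z, hz⟩
    rw [h1] at this
    exact this.symm
  obtain ⟨m, hm, h⟩ := hP f₁ (hx.famStab hf₁) f₂ (hy.famStab hf₂) o1 o2 n1 n2
  obtain ⟨k, hk⟩ := (iSup_le fun z => fam_le_ActG E.sys z) hm
  have hki : ∀ z, ((m⁻¹) z : K ⧸ E.P.B) = k⁻¹ • (z : K ⧸ E.P.B) := by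
    intro z
    rw [eq_inv_smul_iff, ← hk]
    congr 1
    exact m.apply_symm_apply z
  refine ⟨MulAut.conj k, ⟨k, rfl⟩, fun hp => h ?_⟩
  have hy' := ((Act.inner (E := E) k).mul hy).mul (Act.inner k).inv
  have h2 : ∀ z, ((m * f₂ * m⁻¹) z : K ⧸ E.P.B) =
      (MulAction.toPerm k * η * (MulAction.toPerm k)⁻¹ : Equiv.Perm (K ⧸ E.P.B)) z := by
    intro z
    rw [Equiv.Perm.mul_apply, Equiv.Perm.mul_apply, hk, hf₂, hki]
    rfl
  -- every element of the closure lifts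
  have hlift : ∀ f ∈ Subgroup.closure ({f₁, m * f₂ * m⁻¹} : Set (Equiv.Perm (E.Δ.Pan i c))),
      ∃ w ∈ Subgroup.closure ({x, MulAut.conj k * y * (MulAut.conj k)⁻¹} : Set (MulAut K)),
        ∃ ζ : Equiv.Perm (K ⧸ E.P.B), Act E w ζ ∧ ∀ z, (f z : K ⧸ E.P.B) = ζ z := by
    intro f hf
    induction hf using Subgroup.closure_induction with
    | mem f hf =>
      rcases hf with rfl | hf
      · exact ⟨x, Subgroup.subset_closure (by simp), θ, hx, hf₁⟩
      · rw [Set.mem_singleton_iff] at hf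
        subst hf
        exact ⟨_, Subgroup.subset_closure (by simp), _, hy', h2⟩
    | one => exact ⟨1, one_mem _, 1, Act.one, fun z => rfl⟩
    | mul f g _ _ h3 h4 =>
      obtain ⟨w, hw, ζ, h5, h6⟩ := h3
      obtain ⟨w', hw', ζ', h5', h6'⟩ := h4
      refine ⟨w * w', mul_mem hw hw', ζ * ζ', h5.mul h5', fun z => ?_⟩
      rw [Equiv.Perm.mul_apply, Equiv.Perm.mul_apply, h6, h6']
    | inv f _ h3 =>
      obtain ⟨w, hw, ζ, h5, h6⟩ := h3
      refine ⟨w⁻¹, inv_mem hw, ζ⁻¹, h5.inv, fun z => ?_⟩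
      rw [Equiv.Perm.eq_inv_iff_eq, ← h6]
      congr 1
      exact f.apply_symm_apply z
  rintro ⟨f, hf⟩
  obtain ⟨w, hw, ζ, h5, h6⟩ := hlift f hf
  obtain ⟨n, hn⟩ := hp ⟨w, hw⟩
  refine ⟨n, ?_⟩
  have hn' : w ^ ℓ ^ n = 1 := by simpa using congrArg Subtype.val hn
  have h7 : f ^ ℓ ^ n = 1 := by
    ext z
    rw [restr_pow h6, h5.pow_eq_one hn']
    rfl
  exact Subtype.ext (by simpa using h7)

/-- **A common type.** -/
theorem TP.wpair (h2 : ℓ ≠ 2) {i : Fin l} (hF : FNode E.P E.U (E.e i : K) (Q i)) {x y : MulAut K} (hx : TP E x i)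
    (hy : TP E y i) (ox : x ^ ℓ = 1) (oy : y ^ ℓ = 1) : WPair ℓ (MulAut.conj : K →* MulAut K).range x y := by
  obtain ⟨θ, hθ, c, hc, z, hz, hz'⟩ := hx
  obtain ⟨η, hη, d, hd, w, hw, hw'⟩ := hy
  obtain ⟨g, rfl⟩ : ∃ g : K, g • d = c := by
    obtain ⟨a, rfl⟩ := QuotientGroup.mk_surjective c
    obtain ⟨b, rfl⟩ := QuotientGroup.mk_surjective d
    exact ⟨a * b⁻¹, by rw [smul_mk, inv_mul_cancel_right]⟩
  refine WPair.conj_right (s := MulAut.conj g) ⟨g, rfl⟩ ?_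
  have h1 : Act E (MulAut.conj g * y * (MulAut.conj g)⁻¹) (MulAction.toPerm g * η * (MulAction.toPerm g)⁻¹) :=
    ((Act.inner g).mul hη).mul (Act.inner g).inv
  have h2' : ∀ a, (MulAction.toPerm g * η * (MulAction.toPerm g)⁻¹ : Equiv.Perm (K ⧸ E.P.B)) (g • a) = g • η a := by
    intro a
    rw [Equiv.Perm.mul_apply, Equiv.Perm.mul_apply]
    have : (MulAction.toPerm g)⁻¹ (g • a) = a := (MulAction.toPerm g).symm_apply_apply a
    rw [this]
    rfl
  refine wpair_pan hθ h1 ox ?_ hc (by rw [h2', hd]) ⟨z, hz, hz'⟩ ⟨g • w, ?_, ?_⟩ (w2_pan E h2 hF _)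
  · rw [conj_pow, oy, mul_one, mul_inv_cancel]
  · have h3 := (Act.inner (E := E) g).iso d w
    rw [E.Δ.Pan_eq_Res, mem_Res] at hw ⊢
    rw [← h3] at hw
    exact hw
  · rw [h2']
    intro h3
    exact hw' (MulAction.injective g h3)

section Asm

variable {A : Fin l → Fin l → ℤ} {h : IsCartan M A} {T : Subgroup K} {n : Fin l → K}
  {X : (Fin l → ℤ) → Subgroup K} [Finite M.Group]

variable (R : RGD M.toCoxeterSystem h ℓ T n X) {E : Eng ℓ K M Q} (hB : E.P.B = RGD.B M.toCoxeterSystem h T X)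
  (he : ∀ i, (E.e i : K) = n i)

include R hB he

/-- **The weak row.** -/
theorem wrow_of' [IsSimpleGroup K] [Nonempty (Fin l)] (hcc : ∃ a b : K, a * b ≠ b * a)
    (hG : GG M.toCoxeterSystem h T X = ⊤) (h2 : ℓ ≠ 2)
    (hF : ∀ i, FNode E.P E.U (E.e i : K) (Q i))
    (hin : ∀ x y : K, x ^ ℓ = 1 → y ^ ℓ = 1 → x ≠ 1 → y ≠ 1 →
      (∃ i, NT M.toCoxeterSystem h X x i ∧ NT M.toCoxeterSystem h X y i) ∨
        WPair ℓ (⊤ : Subgroup K) x y)
    (hout : ∀ c : MulAut K, orderOf c = ℓ → (∃ g : K, c = MulAut.conj g) ∨ ∀ i, TP E c i) : WRow ℓ K := by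
  obtain ⟨i0⟩ := (inferInstance : Nonempty (Fin l))
  have pw : ∀ {c : MulAut K}, orderOf c = ℓ → c ^ ℓ = 1 := fun {c} hc => by rw [← hc, pow_orderOf_eq_one]
  have hNT : ∀ x : K, x ^ ℓ = 1 → x ≠ 1 → ∃ i, NT M.toCoxeterSystem h X x i := by
    intro x hx hx1
    refine exists_NT R hG ?_ hx1
    rw [IsPGroup.iff_card]
    refine ⟨1, ?_⟩
    rw [Nat.card_zpowers, pow_one, orderOf_eq_prime hx hx1]
  have hinj : Function.Injective (MulAut.conj : K →* MulAut K) := by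
    rw [injective_iff_map_eq_one]
    intro x hx
    by_contra hx1
    rcases (inferInstance : (MulAut.conj : K →* MulAut K).ker.Normal).eq_bot_or_eq_top with h3 | h3
    · apply hx1
      rw [← Subgroup.mem_bot, ← h3]
      exact hx
    · obtain ⟨a, b, hab⟩ := hcc
      apply hab
      have h4 : a ∈ (MulAut.conj : K →* MulAut K).ker := h3 ▸ Subgroup.mem_top a
      have h5 : a * b * a⁻¹ = b := by
        have := congrArg (fun f : MulAut K => f b) (MonoidHom.mem_ker.1 h4)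
        simpa using this
      calc a * b = a * b * a⁻¹ * a := by group
        _ = b * a := by rw [h5]
  have key : ∀ {c d : MulAut K}, c ^ ℓ = 1 → d ^ ℓ = 1 → ∀ {i : Fin l}, TP E c i → TP E d i →
      WPair ℓ (MulAut.conj : K →* MulAut K).range c d := fun hc hd i hci hdi => TP.wpair h2 (hF i) hci hdi hc hd
  intro c d hc hd
  rcases hout c hc with hc1 | hc1
  · obtain ⟨x, rfl, hx, hx1⟩ := exists_of_inner hcc hc1 hc
    rcases hout d hd with hd1 | hd1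
    · obtain ⟨y, rfl, hy, hy1⟩ := exists_of_inner hcc hd1 hd
      rcases hin x y hx hy hx1 hy1 with ⟨i, h1, h2⟩ | h1
      · exact key (pw hc) (pw hd) (tp_of_NT R hB he h1) (tp_of_NT R hB he h2)
      · obtain ⟨g, -, h2⟩ := h1
        refine ⟨MulAut.conj g, ⟨g, rfl⟩, fun h3 => h2 ?_⟩
        have h4 := closure_pair_map (MulAut.conj : K →* MulAut K) x (g * y * g⁻¹)
        rw [map_mul, map_mul, map_inv] at h4
        rw [← h4] at h3
        exact (h3.comap_of_injective (MulAut.conj : K →* MulAut K) hinj).to_le (Subgroup.le_comap_map _ _)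
    · obtain ⟨i, hi⟩ := hNT x hx hx1
      exact key (pw hc) (pw hd) (tp_of_NT R hB he hi) (hd1 i)
  · rcases hout d hd with hd1 | hd1
    · obtain ⟨y, rfl, hy, hy1⟩ := exists_of_inner hcc hd1 hd
      obtain ⟨i, hi⟩ := hNT y hy hy1
      exact key (pw hc) (pw hd) (hc1 i) (tp_of_NT R hB he hi)
    · exact key (pw hc) (pw hd) (hc1 i0) (hd1 i0)

end Asm

end Cfsg.Agent.H798.W3Pan
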