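import Cfsg.Agent.H798.W3Pan
import Cfsg.Agent.H798.T5Tw

/-!
S3826, defining characteristic (helper798): `WRow p S` for `S = F₄(q), E₆(q), E₇(q), E₈(q), ²E₆(q)`, `p ∣ q`, `p` odd
(in particular `p = 3`).
-/

set_option autoImplicit false
set_option linter.unusedSectionVars false
set_option maxHeartbeats 400000

namespace Cfsg.Agent.H798.W3Rows

open Matrix CoxeterSystem Cfsg.Agent.ChevalleyStructure.CoxeterGeom Cfsg.Agent.Tits.Roots Cfsg.Agent.Tits.Core
  Cfsg.Agent.Tits.RootComb Cfsg.Agent.Nodes.Comb Cfsg.Agent.Nodes.Reps Cfsg.Agent.Nodes.BNOf Cfsg.Agent.Nodes.BNOf.RGD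
open Cfsg.Agent.Nodes.RGDLib Cfsg.Agent.FixBN Cfsg.Agent.FixBN.FieldRGD Cfsg.Agent.H460.Typed
open Cfsg.Agent.H185.TypedTw (FNode)
open Cfsg.Lie Cfsg.Agent.ChevalleyStructure Cfsg.Agent.ChevalleyStructure.Elts
  Cfsg.Agent.ChevalleyStructure.NPerm Cfsg.Agent.ChevalleyStructure.CoxeterGeomTypes Cfsg.Agent.Nodes.RGDChev
open Cfsg.Agent.KFacts.RgdAut Cfsg.Agent.KFacts.RgdDiag Cfsg.Agent.KFacts.RgdRigid
  Cfsg.Agent.KFacts.RgdField Cfsg.Agent.KFacts.RgdTau Cfsg.Agent.KFacts.RgdChevCoord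
open Cfsg.Agent.KFacts.RgdFilt Cfsg.Agent.KFacts.RgdBorelTits
open Cfsg.Agent.FixBN.ChevGood (isSolvable_T)
open Cfsg.Agent.H460.FTypedAE (fieldNode_of_sl)
open Cfsg.Agent.H533.T5 Cfsg.Agent.H957.T5M
open Cfsg.Agent.H798.T5Geo Cfsg.Agent.H798.T5Pan Cfsg.Agent.H798.T5Tp Cfsg.Agent.H798.T5Asm
open Cfsg.Agent.H798.T5Untw (fnode_chev intComm_chev card_chev comm_of_not lab_E6 lab_E7 lab_E8)
open Cfsg.Agent.H798.W3Pan
open scoped MatrixGroups

section Untw

variable {D : ChevalleyDatum} {l : ℕ} {M : CoxeterMatrix (Fin l)}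

/-- **The weak row**, one type contained in all `T(x)`. -/
theorem wrow_chev (hp : IsType D l M) (K : Type) [Field K] [Finite K] (p : ℕ) [Fact p.Prime] [CharP K p]
    [IsSimpleGroup ↥(D.group K)] (hc : ∃ a b : ↥(D.group K), a * b ≠ b * a) (hp2 : p ≠ 2) (hl : 1 ≤ l)
    (hσ : ∀ σ : Equiv.Perm (Fin l), (∀ i j, M (σ i) (σ j) = M i j) → σ ^ p = 1 → σ = 1)
    (hT : ∃ i0, ∀ (x : ↥(D.group K)) (i : Fin l), NT M.toCoxeterSystem hp.isCartan (XX D l K) x i →
      NT M.toCoxeterSystem hp.isCartan (XX D l K) x i0) : WRow p ↥(D.group K) := by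
  have hpp : p.Prime := Fact.out
  have hW : Finite M.Group := finite_W hp (M.toCoxeterSystem)
  have R := rgd (K := K) hp M.toCoxeterSystem p
  have hG1 : RGD.Sup (XX D l K) {x | IsRoot M.toCoxeterSystem hp.isCartan x} = ⊤ := G1_eq_top hp M.toCoxeterSystem
  have hne : Nonempty (Fin l) := ⟨⟨0, hl⟩⟩
  have hconn := KFacts.RgdLieCharP.conn_of_simple R hG1 (KFacts.RgdLieCharP.center_eq_bot hc)
  have C := coords (K := K) hp M.toCoxeterSystem p
  have H := coroots (K := K) hp M.toCoxeterSystem p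
  obtain ⟨E, hB, he, hF⟩ := exists_eng_of (Q := fun _ => Nat.card K) R (gen hp M.toCoxeterSystem p) (isSolvable_T K hp)
    (fun i => fnode_chev hp K p i) hl
  obtain ⟨i0, hi0⟩ := hT
  have hG := KFacts.RgdFilt.GG_eq_top (T := TT D K) hG1
  refine wrow_of' R hB he hc hG hp2 hF ?_ ?_
  · intro x y hx hy hx1 hy1
    left
    have hNT : ∀ x : ↥(D.group K), x ^ p = 1 → x ≠ 1 → NT M.toCoxeterSystem hp.isCartan (XX D l K) x i0 := by
      intro x hx hx1
      obtain ⟨i, hi⟩ := exists_NT R hG (c := x) (by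
        rw [IsPGroup.iff_card]
        refine ⟨1, ?_⟩
        rw [Nat.card_zpowers, pow_one, orderOf_eq_prime hx hx1]) hx1
      exact hi0 x i hi
    exact ⟨i0, hNT x hx hx1, hNT y hy hy1⟩
  · intro c hc'
    have hcp : c ^ p = 1 := by rw [← hc', pow_orderOf_eq_one]
    rcases CpAut.RgdConj.inner_or_conj R hG1 C H hconn hσ hcp with h1 | ⟨τ, hτ, hτ1, h1⟩
    · exact Or.inl h1
    · right
      have hstd : ∀ r, IsRoot M.toCoxeterSystem hp.isCartan r → ∀ a,
          CpAut.RgdUntw.fld D τ (xc hp r a) = xc hp r (τ a) := by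
        intro r hr a
        obtain ⟨s, hs, rfl⟩ := (isRoot_iff hp M.toCoxeterSystem r).1 hr
        exact CpAut.RgdUntw.fld_xc hp τ hs a
      have S := CpAut.RgdConj.tau_of_std R hG1 C H hconn hstd
      have hφ : CpAut.RgdUntw.fld D τ ^ p = 1 := by rw [← CpAut.RgdUntw.fld_pow, hτ, CpAut.RgdUntw.fld_one]
      obtain ⟨e, he'⟩ := h1 _ hφ S
      rw [he']
      refine TP.conj_all ?_ e
      exact tp_of_ntau R hB he (F := fun _ => K) (χ := fun i => ch hp (sr i))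
        (fun i => C.coord _ (isRoot_sr M.toCoxeterSystem hp.isCartan i)) hσ hφ (τ := fun _ => τ)
        ⟨S.diag, S.char⟩ (fun _ => hτ1)

/-- simply laced types -/
theorem wrow_simply (hp : IsType D l M) (K : Type) [Field K] [Finite K] (p : ℕ) [Fact p.Prime] [CharP K p]
    [IsSimpleGroup ↥(D.group K)] (hc : ∃ a b : ↥(D.group K), a * b ≠ b * a) (hp2 : p ≠ 2) (hl : 1 ≤ l)
    (hσ : ∀ σ : Equiv.Perm (Fin l), (∀ i j, M (σ i) (σ j) = M i j) → σ ^ p = 1 → σ = 1)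
    (hM : ∀ i j, i ≠ j → M i j = 2 ∨ M i j = 3) : WRow p ↥(D.group K) := by
  have hW : Finite M.Group := finite_W hp (M.toCoxeterSystem)
  have R := rgd (K := K) hp M.toCoxeterSystem p
  have hG1 : RGD.Sup (XX D l K) {x | IsRoot M.toCoxeterSystem hp.isCartan x} = ⊤ := G1_eq_top hp M.toCoxeterSystem
  have hconn := KFacts.RgdLieCharP.conn_of_simple R hG1 (KFacts.RgdLieCharP.center_eq_bot hc)
  exact wrow_chev hp K p hc hp2 hl hσ ⟨⟨0, hl⟩, fun x i hx => nt_all_of_conn R hconn hM hx _⟩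

end Untw

section E6

open Cfsg.Agent.KFacts.TwESix.NodeCoord Cfsg.Agent.KFacts.TwESix.Out Cfsg.Agent.KFacts.TwESix.OutTwo
open Cfsg.Agent.Nodes.RGDTwE6 Cfsg.Agent.Nodes.RGDTwNode.E6
open Cfsg.Agent.H798.T5Tw (finW_E6 gen_E6 fnode_E6 hout_E6 cases_E6 bd_E6)

variable {K : Type} [Field K] [Fintype K] (p : ℕ) [Fact p.Prime] [CharP K p] {q : ℕ} {φ : K →+* K}
  (hφ : ∀ x, φ x = x ^ q) (hqq : ∀ t : K, (t ^ q) ^ q = t)

include hφ hqq in
theorem wrow_twE6 (hp2 : p ≠ 2) (hq : IsPrimePow q) (hK : Fintype.card K = q ^ 2)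
    [IsSimpleGroup ↥(twistedE6 K q)]
    (hna : ¬ IsMulCommutative ↥(twistedE6 K q)) : WRow p ↥(twistedE6 K q) := by
  have hp : p.Prime := Fact.out
  have hW := finW_E6
  have R := Cfsg.Agent.Nodes.RGDTwE6.rgd (CoxeterMatrix.F₄).toCoxeterSystem hφ hqq p
  have hG1 := G1_top (CoxeterMatrix.F₄).toCoxeterSystem hφ hqq
  obtain ⟨E, hB, he, hF⟩ := exists_eng_of (Q := fun i => Nat.card (KF φ i)) R (gen_E6 p hφ hqq)
    (TwGood.isSolvable_T Nodes.RGDTwE6.hp) (fun i => fnode_E6 p hφ hqq i) (by norm_num)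
  refine wrow_of' R hB he (comm_of_not hna) (KFacts.RgdFilt.GG_eq_top (T := T K q) hG1) hp2 hF ?_
    (fun c hc => hout_E6 p hφ hqq hB he hp2 hq hK hc)
  intro x y hx hy hx1 hy1
  have pg : ∀ x : ↥(twistedE6 K q), x ^ p = 1 → x ≠ 1 → IsPGroup p (Subgroup.zpowers x) := by
    intro x hx hx1
    rw [IsPGroup.iff_card]
    refine ⟨1, ?_⟩
    rw [Nat.card_zpowers, pow_one, orderOf_eq_prime hx hx1]
  have hBd := bd_E6 p hφ hqq hp2
  rcases cases_E6 p hφ hqq hx hy hx1 hy1 with h1 | ⟨h1, h2, h3, h4⟩ | ⟨h1, h2, h3, h4⟩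
  · exact Or.inl h1
  · exact Or.inr (hBd x y (pg y hy hy1) h1 h3 h4)
  · exact Or.inr (hBd y x (pg x hx hx1) h1 h3 h4).symm

end E6

section Rows

variable (p : ℕ) [Fact p.Prime] (hp2 : p ≠ 2) (K : Type) [Field K] [Fintype K] [CharP K p]

include hp2

/-- **`E₆(q)`**, own odd characteristic. -/
theorem wrow_E6 : WRow p ↥(chevE6.group K) := by
  obtain ⟨hs, hna⟩ := Cfsg.Agent.S1054.result (F := K) chevE6 (by simp)
  exact wrow_simply (D := chevE6) (l := 6) (M := CoxeterMatrix.E₆) (by simp [IsType, typeList]) K p (comm_of_not hna)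
    hp2 (by norm_num) (CpAut.RgdUntw.symTwo_E6.eq_one Fact.out hp2) lab_E6

/-- **`E₇(q)`**, own odd characteristic. -/
theorem wrow_E7 : WRow p ↥(chevE7.group K) := by
  obtain ⟨hs, hna⟩ := Cfsg.Agent.S1054.result (F := K) chevE7 (by simp)
  exact wrow_simply (D := chevE7) (l := 7) (M := CoxeterMatrix.E₇) (by simp [IsType, typeList]) K p (comm_of_not hna)
    hp2 (by norm_num) (CpAut.RgdUntw.symTwo_E7.eq_one Fact.out hp2) lab_E7

/-- **`E₈(q)`**, own odd characteristic. -/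
theorem wrow_E8 : WRow p ↥(chevE8.group K) := by
  obtain ⟨hs, hna⟩ := Cfsg.Agent.S1054.result (F := K) chevE8 (by simp)
  exact wrow_simply (D := chevE8) (l := 8) (M := CoxeterMatrix.E₈) (by simp [IsType, typeList]) K p (comm_of_not hna)
    hp2 (by norm_num) (CpAut.RgdUntw.symTwo_E8.eq_one Fact.out hp2) lab_E8

/-- **`F₄(q)`**, own odd characteristic. -/
theorem wrow_F4 : WRow p ↥(chevF4.group K) := by
  obtain ⟨hs, hna⟩ := Cfsg.Agent.S1054.result (F := K) chevF4 (by simp)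
  have hp : IsType chevF4 4 CoxeterMatrix.F₄ := by simp [IsType, typeList]
  have hW : Finite (CoxeterMatrix.F₄).Group := finite_W hp (CoxeterMatrix.F₄).toCoxeterSystem
  have R := rgd (K := K) hp (CoxeterMatrix.F₄).toCoxeterSystem p
  refine wrow_chev hp K p (comm_of_not hna) hp2 (by norm_num)
    (CpAut.RgdUntw.symTwo_F4.eq_one Fact.out hp2) ⟨2, fun x i hx => ?_⟩
  have h12 : NT (CoxeterMatrix.F₄).toCoxeterSystem hp.isCartan (XX chevF4 4 K) x 1 →
      NT (CoxeterMatrix.F₄).toCoxeterSystem hp.isCartan (XX chevF4 4 K) x 2 :=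
    T5Long.nt_long_four (i := 2) (j := 1) hp2 R (intComm_chev hp K) (by decide) (by decide) (by decide)
      (by decide) (card_chev hp K p 2 1)
  have h01 : NT (CoxeterMatrix.F₄).toCoxeterSystem hp.isCartan (XX chevF4 4 K) x 0 →
      NT (CoxeterMatrix.F₄).toCoxeterSystem hp.isCartan (XX chevF4 4 K) x 1 := T5Root.NT.of_three R (by decide)
  have h32 : NT (CoxeterMatrix.F₄).toCoxeterSystem hp.isCartan (XX chevF4 4 K) x 3 →
      NT (CoxeterMatrix.F₄).toCoxeterSystem hp.isCartan (XX chevF4 4 K) x 2 := T5Root.NT.of_three R (by decide)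
  fin_cases i
  · exact h12 (h01 hx)
  · exact h12 hx
  · exact hx
  · exact h32 hx

/-- **`²E₆(q)`**, own odd characteristic. -/
theorem wrow_2E6 {q : ℕ} (hq : IsPrimePow q) (hK : Fintype.card K = q ^ 2) : WRow p ↥(twistedE6 K q) := by
  obtain ⟨hs, hna⟩ := Cfsg.Agent.S1070.result hq hK
  obtain ⟨φ, hφ, hqq⟩ := TwE6Basic.exists_frob hq hK
  exact wrow_twE6 p hφ hqq hp2 hq hK hna

end Rows

end Cfsg.Agent.H798.W3Rows
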